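import Cfsg.Agent.Lib.Helper11.Suzo.Model
import Cfsg.Agent.Lib.Helper11.SimpleModel

set_option autoImplicit false
set_option maxRecDepth 100000

namespace Cfsg.Agent.Lib.Helper11.Suzo

open Cfsg.Spor Cfsg.Spor.Suz Cfsg.Agent.Lib.Helper11.Suz22880

set_option maxHeartbeats 0

def primL : List (ℕ × ℕ × WExp × ℕ) := [(486, 6, (.l 5), 8), (8505, 5, (.mul (.l 5) (.mul (.l 4) (.mul (.l 3) (.mul (.l 4) (.l 5))))), 6), (13608, 6, (.mul (.l 5) (.mul (.l 4) (.mul (.l 3) (.mul (.l 4) (.mul (.l 2) (.mul (.l 3) (.mul (.l 4) (.l 5)))))))), 5), (280, 3, (.mul (.l 5) (.mul (.l 4) (.mul (.l 3) (.mul (.l 2) (.mul (.l 7) (.mul (.l 6) (.mul (.l 4) (.mul (.l 3) (.mul (.l 4) (.mul (.l 5) (.mul (.l 4) (.mul (.l 3) (.mul (.l 4) (.mul (.l 2) (.mul (.l 3) (.mul (.l 4) (.l 5))))))))))))))))), 4)]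
theorem primOK : primChk (ntOf ntl) INVm (hExps.map (fun e => e.letters INVm)) 22880 1 primL = true := by
  decide +kernel
def tE : WExp := .pow (.mul (.mul (.mul (.mul (.l 2) (.l 3)) (.l 4)) (.l 3)) (.l 4)) 5
theorem normOK : normChk (ntOf ntl) 15 (hExps.map (fun e => e.letters INVm)) (tE.letters INVm)
    ((WExp.inv tE).letters INVm) = true := by decide +kernel


end Cfsg.Agent.Lib.Helper11.Suzo
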